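import Mathlib
import Cfsg.Agent.Helper17.L27.IsoGen
import Cfsg.Agent.Helper17.TCD.A5P_Chk

/-!
# The von Dyck presentation `a² = b³ = (ab)⁵ = 1` bounds the order by 60 (helper17)
-/

set_option autoImplicit false

namespace Cfsg.Agent.Helper17.L27

open Cfsg.Agent.Helper17.TC Cfsg.Agent.Helper17 Cfsg.Agent.Helper17.J1

section

variable {K : Type*} [Group K]

/-- a group generated by `a`, `b` with `a² = b³ = (ab)⁵ = 1` has order at most 60
(relations in list form) -/
theorem card_le_A5' (a b : K) (hgen : Subgroup.closure ({a, b} : Set K) = ⊤)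
    (hR : ∀ r ∈ TCD.A5P.relsL, ev a b r = 1) : Finite K ∧ Nat.card K ≤ 60 := by
  have hsub : ∀ w ∈ TCD.A5P.cert.subs, (w.map (cols a b)).prod ∈ Subgroup.zpowers (a * b) := by
    intro w hw
    have hw' : w ∈ [[0, 2]] := hw
    simp only [List.mem_cons, List.not_mem_nil, or_false] at hw'
    subst hw'
    have e : ([0, 2].map (cols a b)).prod = a * b := by simp [cols]
    rw [e]
    exact Subgroup.mem_zpowers _
  obtain ⟨hfin, hle⟩ := index_le (c := TCD.A5P.cert) (Subgroup.zpowers (a * b)) (cols a b)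
    TCD.A5P.checked (cols_gen' a b hgen) (cols_ginv' a b) hR hsub
  have hle' : (Subgroup.zpowers (a * b)).index ≤ 12 := hle
  have hab5 : (a * b) ^ 5 = 1 := by
    have := hR [0, 2, 0, 2, 0, 2, 0, 2, 0, 2] (by simp [TCD.A5P.relsL])
    simpa [ev, cols, pow_succ, mul_assoc] using this
  have h3 : Nat.card (Subgroup.zpowers (a * b)) ≤ 5 := by
    rw [Nat.card_zpowers]
    exact orderOf_le_of_pow_eq_one (by norm_num) hab5
  have h3' : Nat.card (Subgroup.zpowers (a * b)) ≠ 0 := by
    rw [Nat.card_zpowers]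
    exact (orderOf_pos_iff.2 (isOfFinOrder_iff_pow_eq_one.2 ⟨5, by norm_num, hab5⟩)).ne'
  have h4 : (Subgroup.zpowers (a * b)).index ≠ 0 := by
    rw [Subgroup.index]
    exact Nat.card_pos.ne'
  have hc := Subgroup.card_mul_index (Subgroup.zpowers (a * b))
  have hK : Nat.card K ≠ 0 := by rw [← hc]; exact Nat.mul_ne_zero h3' h4
  refine ⟨Nat.finite_of_card_ne_zero hK, ?_⟩
  rw [← hc]
  calc Nat.card (Subgroup.zpowers (a * b)) * (Subgroup.zpowers (a * b)).index ≤ 5 * 12 :=
        Nat.mul_le_mul h3 hle'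
    _ = 60 := by norm_num

/-- a group generated by `a`, `b` with `a² = b³ = (ab)⁵ = 1` has order at most 60 -/
theorem card_le_A5 (a b : K) (hgen : Subgroup.closure ({a, b} : Set K) = ⊤)
    (ha : a ^ 2 = 1) (hb : b ^ 3 = 1) (hab : (a * b) ^ 5 = 1) :
    Finite K ∧ Nat.card K ≤ 60 := by
  refine card_le_A5' a b hgen ?_
  intro r hr
  have hr' : r ∈ [[0, 0], [2, 2, 2], [0, 2, 0, 2, 0, 2, 0, 2, 0, 2]] := hr
  simp only [List.mem_cons, List.not_mem_nil, or_false] at hr'
  rcases hr' with rfl | rfl | rfl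
  · simpa [ev, cols, pow_succ, mul_assoc] using ha
  · simpa [ev, cols, pow_succ, mul_assoc] using hb
  · simpa [ev, cols, pow_succ, mul_assoc] using hab

end

end Cfsg.Agent.Helper17.L27
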