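import Mathlib
import Cfsg.Agent.Helper17.L27.Conc
import Cfsg.Agent.Helper17.J1.Schur3

/-!
# The Schur multiplier of `PSL₃(2)` has order 2 (helper17)

`SL₂(7) → PSL₂(7) ≅ PSL₃(2)` is a stem extension with kernel of order 2, and the transfer into a
dihedral Sylow 2-subgroup bounds the kernel of every finite stem extension by 2.
-/

set_option autoImplicit false

universe u

namespace Cfsg.Agent.Helper17.L27

open Matrix Cfsg.Agent.Helper17.J1

/-! ### Elements of `SL₃(2)` -/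

def Xs : SpecialLinearGroup (Fin 3) (ZMod 2) := ⟨!![1, 1, 0; 0, 1, 1; 0, 0, 1], by decide⟩
def Ys : SpecialLinearGroup (Fin 3) (ZMod 2) := ⟨!![1, 1, 0; 0, 1, 0; 0, 0, 1], by decide⟩
def C3s : SpecialLinearGroup (Fin 3) (ZMod 2) := ⟨!![0, 1, 0; 1, 1, 0; 0, 0, 1], by decide⟩
def C7s : SpecialLinearGroup (Fin 3) (ZMod 2) := ⟨!![0, 0, 1; 1, 0, 1; 0, 1, 0], by decide⟩

theorem l32_rels : Xs ^ 4 = 1 ∧ Ys ^ 2 = 1 ∧ Ys * Xs * Ys = Xs ^ 3 ∧ C3s ^ 3 = 1 ∧
    C7s ^ 7 = 1 := by decide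

theorem l32_nc : Xs ^ 2 * A2 ≠ A2 * Xs ^ 2 ∧ C3s * A2 ≠ A2 * C3s ∧ C7s * A2 ≠ A2 * C7s := by
  decide

/-- the kernel of a finite stem extension of `PSL₃(2)` has order at most 2 -/
theorem card_ker_le_two_l32 {F : Type*} [Field F] [Fintype F] (hF : Fintype.card F = 2)
    {Γ : Type*} [Group Γ] [Finite Γ] (σ : Γ →* ProjectiveSpecialLinearGroup (Fin 3) F)
    (hσ : Cfsg.IsStemExtension σ) : Nat.card σ.ker ≤ 2 := by
  classical
  let e2 : ZMod 2 ≃+* F := ZMod.ringEquivOfPrime F (by norm_num) hF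
  have he2 : Function.Injective (e2 : ZMod 2 →+* F) := e2.injective
  let φ := phi (n := 3) (e2 : ZMod 2 →+* F)
  have hcard := card_psl32 hF
  have hfin : Finite (ProjectiveSpecialLinearGroup (Fin 3) F) :=
    Nat.finite_of_card_ne_zero (by rw [hcard]; norm_num)
  have hx4 : φ Xs ^ 4 = 1 := by rw [← map_pow, l32_rels.1, map_one]
  have hx2 : φ Xs ^ 2 ≠ 1 := by
    rw [← map_pow]
    exact phi_ne_one _ he2 l32_nc.1
  have hy : φ Ys ^ 2 = 1 := by rw [← map_pow, l32_rels.2.1, map_one]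
  have hyi : (φ Ys)⁻¹ = φ Ys := inv_eq_of_mul_eq_one_left (by rw [← pow_two, hy])
  have hxi : (φ Xs)⁻¹ = φ Xs ^ 3 := inv_eq_of_mul_eq_one_left (by rw [← pow_succ, hx4])
  have hxy : φ Ys * φ Xs * (φ Ys)⁻¹ = (φ Xs)⁻¹ := by
    rw [hyi, hxi, ← map_mul, ← map_mul, l32_rels.2.2.1, map_pow]
  have h3 : φ C3s ^ 3 = 1 := by rw [← map_pow, l32_rels.2.2.2.1, map_one]
  have h31 : φ C3s ≠ 1 := phi_ne_one _ he2 l32_nc.2.1
  have h7 : φ C7s ^ 7 = 1 := by rw [← map_pow, l32_rels.2.2.2.2, map_one]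
  have h71 : φ C7s ≠ 1 := phi_ne_one _ he2 l32_nc.2.2
  obtain ⟨c, -, hc⟩ := d8_pow_index σ hσ (φ Xs) (φ Ys) hx4 hx2 hxy
  have hodd := d8_index 21 (by norm_num) (by rw [hcard]) (φ Xs) (φ Ys) hx4 hx2 hy hxy
  apply card_ker_le_two σ hσ _ hodd ?_ c hc
  intro z hz
  have i3 := zpowers_index_eq hcard Nat.prime_three (m := 56) (by norm_num) (φ C3s) h3 h31
  have i7 := zpowers_index_eq hcard (by norm_num : Nat.Prime 7) (m := 24) (by norm_num)
    (φ C7s) h7 h71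
  have p3 := zpowers_pow_index σ hσ (φ C3s) hz
  have p7 := zpowers_pow_index σ hσ (φ C7s) hz
  rw [i3] at p3
  rw [i7] at p7
  exact pow_gcd_eq_one.2 ⟨p3, p7⟩

/-! ### The stem extension `SL₂(7) → PSL₃(2)` -/

def Ca7 : SpecialLinearGroup (Fin 2) (ZMod 7) := ⟨!![0, 1; 6, 0], by decide⟩
def Cb7 : SpecialLinearGroup (Fin 2) (ZMod 7) := ⟨!![3, 2; 2, 4], by decide⟩
def Cai7 : SpecialLinearGroup (Fin 2) (ZMod 7) := ⟨!![0, 6; 1, 0], by decide⟩
def Cbi7 : SpecialLinearGroup (Fin 2) (ZMod 7) := ⟨!![4, 5; 5, 3], by decide⟩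

theorem comm7 : Ca7 * Cai7 = 1 ∧ Cb7 * Cbi7 = 1 ∧ Ca7 * Cb7 * Cai7 * Cbi7 = N7 ∧ N7 ≠ 1 := by
  decide

theorem scalar6 : Matrix.scalar (Fin 2) (6 : ZMod 7) = (N7 : Matrix (Fin 2) (Fin 2) (ZMod 7)) := by
  decide

theorem sq7 : ∀ r : ZMod 7, r ^ 2 = 1 → r = 1 ∨ r = 6 := by decide

theorem N7_mem_center : N7 ∈ Subgroup.center (SpecialLinearGroup (Fin 2) (ZMod 7)) := by
  rw [Matrix.SpecialLinearGroup.mem_center_iff]
  exact ⟨6, by decide, scalar6⟩

theorem center_SL27 (A : SpecialLinearGroup (Fin 2) (ZMod 7))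
    (hA : A ∈ Subgroup.center (SpecialLinearGroup (Fin 2) (ZMod 7))) : A = 1 ∨ A = N7 := by
  rw [Matrix.SpecialLinearGroup.mem_center_iff] at hA
  obtain ⟨r, hr, hrA⟩ := hA
  rw [Fintype.card_fin] at hr
  rcases sq7 r hr with rfl | rfl
  · left
    apply Subtype.ext
    rw [← hrA]
    simp
  · right
    apply Subtype.ext
    rw [← hrA]
    exact scalar6

theorem exists_stem_l32 {F : Type u} [Field F] [Fintype F] (hF : Fintype.card F = 2) :
    ∃ (Γ : Type u) (_ : Group Γ) (_ : Finite Γ)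
      (σ : Γ →* ProjectiveSpecialLinearGroup (Fin 3) F),
      Cfsg.IsStemExtension σ ∧ Nat.card σ.ker = 2 := by
  have : Fact (Nat.Prime 7) := ⟨by norm_num⟩
  obtain ⟨iso⟩ := psl27_iso_psl32 (F := ZMod 7) (K := F) (ZMod.card 7) hF
  let q : SpecialLinearGroup (Fin 2) (ZMod 7) →* ProjectiveSpecialLinearGroup (Fin 2) (ZMod 7) :=
    QuotientGroup.mk' (Subgroup.center (SpecialLinearGroup (Fin 2) (ZMod 7)))
  let dn : ULift.{u} (SpecialLinearGroup (Fin 2) (ZMod 7)) →* SpecialLinearGroup (Fin 2) (ZMod 7) :=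
    MulEquiv.ulift.toMonoidHom
  let σ : ULift.{u} (SpecialLinearGroup (Fin 2) (ZMod 7)) →*
      ProjectiveSpecialLinearGroup (Fin 3) F := iso.toMonoidHom.comp (q.comp dn)
  have hker : ∀ v : ULift.{u} (SpecialLinearGroup (Fin 2) (ZMod 7)), v ∈ σ.ker ↔
      v.down ∈ Subgroup.center (SpecialLinearGroup (Fin 2) (ZMod 7)) := by
    intro v
    rw [MonoidHom.mem_ker]
    show iso (q v.down) = 1 ↔ _
    rw [MulEquiv.map_eq_one_iff]
    exact QuotientGroup.eq_one_iff _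
  have hcases : ∀ v ∈ σ.ker, v = 1 ∨ v = ULift.up N7 := by
    intro v hv
    rcases center_SL27 v.down ((hker v).1 hv) with h | h
    · left; exact ULift.ext _ _ h
    · right; exact ULift.ext _ _ h
  have hN : ULift.up N7 ∈ σ.ker := (hker _).2 N7_mem_center
  refine ⟨ULift.{u} (SpecialLinearGroup (Fin 2) (ZMod 7)), inferInstance, inferInstance, σ,
    ⟨?_, ?_, ?_⟩, ?_⟩
  · intro g
    obtain ⟨g', hg'⟩ := QuotientGroup.mk'_surjective _ (iso.symm g)
    refine ⟨ULift.up g', ?_⟩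
    show iso (q g') = g
    rw [hg', MulEquiv.apply_symm_apply]
  · intro v hv
    have hc := (hker v).1 hv
    rw [Subgroup.mem_center_iff] at hc ⊢
    intro g
    exact ULift.ext _ _ (hc g.down)
  · intro v hv
    rcases hcases v hv with rfl | rfl
    · exact Subgroup.one_mem _
    · have e : (ULift.up N7 : ULift.{u} (SpecialLinearGroup (Fin 2) (ZMod 7))) =
          ULift.up Ca7 * ULift.up Cb7 * (ULift.up Ca7)⁻¹ * (ULift.up Cb7)⁻¹ := by
        apply ULift.ext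
        show N7 = Ca7 * Cb7 * Ca7⁻¹ * Cb7⁻¹
        rw [inv_eq_of_mul_eq_one_right comm7.1, inv_eq_of_mul_eq_one_right comm7.2.1]
        exact comm7.2.2.1.symm
      rw [e, ← commutatorElement_def, commutator_def]
      exact Subgroup.commutator_mem_commutator (Subgroup.mem_top _) (Subgroup.mem_top _)
  · rw [Nat.card_eq_two_iff]
    refine ⟨1, ⟨ULift.up N7, hN⟩, ?_, ?_⟩
    · intro h
      have h' := congrArg (fun z : σ.ker => (z : ULift.{u} (SpecialLinearGroup (Fin 2) (ZMod 7))).down) h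
      exact comm7.2.2.2 h'.symm
    · ext z
      simp only [Set.mem_insert_iff, Set.mem_singleton_iff, Set.mem_univ, iff_true]
      rcases hcases z.1 z.2 with h | h
      · left; exact Subtype.ext h
      · right; exact Subtype.ext h

/-- the Schur multiplier of `PSL₃(2)` is cyclic of order 2 -/
theorem schur_l32 {F : Type u} [Field F] [Fintype F] (hF : Fintype.card F = 2) :
    Cfsg.HasCyclicSchurMultiplier (ProjectiveSpecialLinearGroup (Fin 3) F) 2 :=
  hasCyclicSchurMultiplier_two (exists_stem_l32 hF)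
    (fun _ _ _ σ hσ => card_ker_le_two_l32 hF σ hσ)

end Cfsg.Agent.Helper17.L27
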